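import Cfsg.Agent.Lib.Helper21.Uni.Defs

set_option autoImplicit false

namespace Cfsg.Agent.Lib.Helper30.Uni

open Matrix Module Cfsg.Agent.Lib.Helper67.Elus Cfsg.Agent.Lib.Helper21.Uni

variable {F : Type*} [Field F]

/-- C10 -/
theorem cg_lines (h2 : (2 : F) ≠ 0) {c : F} (hc : c ≠ 0) : Cg (bs (Ln c) (Ln (-c))) (Hy Unit F) := by
  refine ⟨fromBlocks (Ln 1) (Ln (1 / (2 * c))) (Ln 1) (Ln (- (1 / (2 * c)))),
    fromBlocks (Ln (1 / 2)) (Ln (1 / 2)) (Ln c) (Ln (- c)), ?_, ?_, ?_⟩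
  · ext i j
    rcases i with i | i <;> rcases j with j | j <;>
      simp [Matrix.mul_apply, Fintype.sum_sum_type, Matrix.one_apply, Ln] <;> field_simp <;> ring
  · ext i j
    rcases i with i | i <;> rcases j with j | j <;>
      simp [Matrix.mul_apply, Fintype.sum_sum_type, Matrix.one_apply, Ln] <;> field_simp <;> ring
  · ext i j
    rcases i with i | i <;> rcases j with j | j <;>
      simp [Matrix.mul_apply, Fintype.sum_sum_type, Matrix.one_apply, Ln, Hy, bs] <;> field_simp <;> ring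

end Cfsg.Agent.Lib.Helper30.Uni
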