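import Cfsg.Agent.Lib.Helper21.Uni.Defs

set_option autoImplicit false

namespace Cfsg.Agent.Lib.Helper30.Uni

open Matrix Module Cfsg.Agent.Lib.Helper67.Elus Cfsg.Agent.Lib.Helper21.Uni

variable {F : Type*} [Field F]

/-- G1 -/
theorem shift_anti (e : ℕ) : (shift F e)ᵀ * anti F e = - (anti F e * shift F e) := by
  ext i j
  simp only [Matrix.mul_apply, Matrix.transpose_apply, Matrix.neg_apply, shift, anti]
  by_cases h : (i : ℕ) + j + 2 = e
  · have hi : (i : ℕ) + 1 < e := by omega
    have hj : (j : ℕ) + 1 < e := by omega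
    rw [Finset.sum_eq_single (⟨i + 1, hi⟩ : Fin e), Finset.sum_eq_single (⟨j + 1, hj⟩ : Fin e)]
    · rw [if_pos rfl, if_pos (by show (i : ℕ) + 1 + j + 1 = e; omega), if_pos rfl,
        if_pos (by show (i : ℕ) + (j + 1) + 1 = e; omega)]
      show (1 : F) * (-1) ^ ((i : ℕ) + 1) = _
      ring
    · intro k _ hk
      rw [if_neg (c := (j : ℕ) + 1 = k) (fun h' => hk (Fin.ext h'.symm)), mul_zero]
    · intro h'; exact absurd (Finset.mem_univ _) h'
    · intro k _ hk
      rw [if_neg (c := (i : ℕ) + 1 = k) (fun h' => hk (Fin.ext h'.symm)), zero_mul]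
    · intro h'; exact absurd (Finset.mem_univ _) h'
  · rw [Finset.sum_eq_zero, Finset.sum_eq_zero, neg_zero]
    · intro k _
      by_cases h1 : (j : ℕ) + 1 = k
      · rw [if_neg (c := (i : ℕ) + k + 1 = e) (by omega), zero_mul]
      · rw [if_neg h1, mul_zero]
    · intro k _
      by_cases h1 : (i : ℕ) + 1 = k
      · rw [if_neg (c := (k : ℕ) + j + 1 = e) (by omega), mul_zero]
      · rw [if_neg h1, zero_mul]

end Cfsg.Agent.Lib.Helper30.Uni
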