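import Cfsg.Agent.Lib.Helper21.Uni.Defs

set_option autoImplicit false

namespace Cfsg.Agent.Lib.Helper30.Uni

open Matrix Module Cfsg.Agent.Lib.Helper67.Elus Cfsg.Agent.Lib.Helper21.Uni

variable {F : Type*} [Field F]

theorem G2_sq (n : ℕ) : ((-1 : F) ^ n) * (-1) ^ n = 1 := by
  rw [← mul_pow]; simp

/-- G2 -/
theorem anti_mul_transpose (e : ℕ) : anti F e * (anti F e)ᵀ = 1 ∧ (anti F e)ᵀ * anti F e = 1 := by
  constructor
  · ext i k
    simp only [Matrix.mul_apply, Matrix.transpose_apply, anti, Matrix.one_apply]
    rw [Finset.sum_eq_single (Fin.rev i)]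
    · have h1 : (i : ℕ) + (Fin.rev i : ℕ) + 1 = e := by rw [Fin.val_rev]; omega
      rw [if_pos h1]
      by_cases hik : i = k
      · subst hik
        rw [if_pos h1, if_pos rfl, G2_sq]
      · rw [if_neg hik, if_neg, mul_zero]
        intro h2
        apply hik
        apply Fin.ext
        omega
    · intro j _ hj
      rw [if_neg, zero_mul]
      intro h2
      apply hj
      apply Fin.ext
      rw [Fin.val_rev]; omega
    · intro h'; exact absurd (Finset.mem_univ _) h'
  · ext i k
    simp only [Matrix.mul_apply, Matrix.transpose_apply, anti, Matrix.one_apply]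
    rw [Finset.sum_eq_single (Fin.rev i)]
    · have h1 : (Fin.rev i : ℕ) + (i : ℕ) + 1 = e := by rw [Fin.val_rev]; omega
      rw [if_pos h1]
      by_cases hik : i = k
      · subst hik
        rw [if_pos h1, if_pos rfl, G2_sq]
      · rw [if_neg hik, if_neg, mul_zero]
        intro h2
        apply hik
        apply Fin.ext
        omega
    · intro j _ hj
      rw [if_neg, zero_mul]
      intro h2
      apply hj
      apply Fin.ext
      rw [Fin.val_rev]; omega
    · intro h'; exact absurd (Finset.mem_univ _) h'

end Cfsg.Agent.Lib.Helper30.Uni
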