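import Cfsg.Agent.Lib.Helper21.Uni.Defs
import Cfsg.Agent.Lib.Helper89.Uni.J2
import Cfsg.Agent.Lib.Helper89.Uni.J3
import Cfsg.Agent.Lib.Helper19.Uni.C9
import Cfsg.Agent.Lib.Helper30.Uni.G1
import Cfsg.Agent.Lib.Helper30.Uni.G2
import Cfsg.Agent.Lib.Helper30.Uni.G3

set_option autoImplicit false

namespace Cfsg.Agent.Lib.Helper30.Uni

open Matrix Module Cfsg.Agent.Lib.Helper67.Elus Cfsg.Agent.Lib.Helper21.Uni Cfsg.Agent.Lib.Helper89.Uni
open Cfsg.Agent.Lib.Helper19.Uni

variable {F : Type*} [Field F]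

/-- G5 -/
theorem realM_pair (e : ℕ) : RealM (Hy (Fin e) F) {e, e} := by
  have h1 : RealM (fromBlocks 0 (anti F e) (anti F e)ᵀ 0 : Matrix (Fin e ⊕ Fin e) (Fin e ⊕ Fin e) F)
      {e, e} := by
    refine ⟨fromBlocks (shift F e) 0 0 (shift F e), ?_, ?_⟩
    · exact jtype_fromBlocks (jtype_shift e) (jtype_shift e)
    · have g1 := shift_anti (F := F) e
      have g2 : (shift F e)ᵀ * (anti F e)ᵀ = - ((anti F e)ᵀ * shift F e) := by
        have := congrArg Matrix.transpose g1
        rw [Matrix.transpose_mul, Matrix.transpose_transpose, Matrix.transpose_neg,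
          Matrix.transpose_mul] at this
        rw [← neg_eq_iff_eq_neg] at this
        rw [← this]
      rw [Matrix.fromBlocks_transpose, Matrix.fromBlocks_multiply, Matrix.fromBlocks_multiply,
        Matrix.fromBlocks_neg]
      simp only [Matrix.transpose_zero, Matrix.mul_zero, Matrix.zero_mul, add_zero, zero_add, neg_zero,
        g1, g2]
  exact realM_congr h1 (cg_hy_of_unit _ _ (anti_mul_transpose e).1 (anti_mul_transpose e).2)

end Cfsg.Agent.Lib.Helper30.Uni
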