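import Cfsg.Agent.Lib.Helper21.Uni.Defs
import Cfsg.Agent.Lib.Helper19.Uni.C1
import Cfsg.Agent.Lib.Helper19.Uni.C2
import Cfsg.Agent.Lib.Helper19.Uni.C3
import Cfsg.Agent.Lib.Helper19.Uni.C4
import Cfsg.Agent.Lib.Helper19.Uni.C9

set_option autoImplicit false

namespace Cfsg.Agent.Lib.Helper30.Uni

open Matrix Module Cfsg.Agent.Lib.Helper67.Elus Cfsg.Agent.Lib.Helper21.Uni Cfsg.Agent.Lib.Helper19.Uni

variable {F : Type*} [Field F]

/-- the reindexing map of C11. -/
def C11_fun (a : ℕ) : Unit ⊕ (Fin a ⊕ Fin a) → Fin (2 * a + 1)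
  | Sum.inl _ => ⟨a, by omega⟩
  | Sum.inr (Sum.inl j) => ⟨j, by omega⟩
  | Sum.inr (Sum.inr j) => ⟨2 * a - j, by omega⟩

theorem C11_bij (a : ℕ) : Function.Bijective (C11_fun a) := by
  rw [Fintype.bijective_iff_injective_and_card]
  constructor
  · intro x y hxy
    have h := congrArg Fin.val hxy
    rcases x with x | x | x <;> rcases y with y | y | y <;> simp only [C11_fun] at h
    · rfl
    · have := y.2; omega
    · have := y.2; omega
    · have := x.2; omega
    · exact congrArg _ (congrArg _ (Fin.ext h))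
    · have := x.2; have := y.2; omega
    · have := x.2; omega
    · have := x.2; have := y.2; omega
    · have := x.2; have := y.2
      exact congrArg _ (congrArg _ (Fin.ext (by omega)))
  · simp; omega

theorem C11_sign (a j : ℕ) (h : j ≤ 2 * a) : (-1 : F) ^ (2 * a - j) = (-1) ^ j := by
  have h1 : (-1 : F) ^ (2 * a - j) * (-1) ^ j = 1 := by
    rw [← pow_add, Nat.sub_add_cancel h, pow_mul]; simp
  have h2 : (-1 : F) ^ j * (-1) ^ j = 1 := by rw [← mul_pow]; simp
  have h3 : (-1 : F) ^ j ≠ 0 := pow_ne_zero _ (by simp)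
  exact mul_right_cancel₀ h3 (h1.trans h2.symm)

/-- C11 -/
theorem cg_anti_odd (a : ℕ) {c : F} (hc : c ≠ 0) :
    Cg (c • anti F (2 * a + 1)) (bs (Ln ((-1) ^ a * c)) (Hy (Fin a) F)) := by
  let e : Unit ⊕ (Fin a ⊕ Fin a) ≃ Fin (2 * a + 1) := Equiv.ofBijective _ (C11_bij a)
  let D : Matrix (Fin a) (Fin a) F := Matrix.diagonal (fun j => (-1) ^ (j : ℕ) * c)
  let D' : Matrix (Fin a) (Fin a) F := Matrix.diagonal (fun j => ((-1) ^ (j : ℕ) * c)⁻¹)
  have hne : ∀ j : Fin a, ((-1 : F) ^ (j : ℕ) * c) ≠ 0 := fun j => mul_ne_zero (pow_ne_zero _ (by simp)) hc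
  have hD1 : D * D' = 1 := by
    rw [Matrix.diagonal_mul_diagonal, ← Matrix.diagonal_one]
    congr 1
    funext j
    exact mul_inv_cancel₀ (hne j)
  have hD2 : D' * D = 1 := by
    rw [Matrix.diagonal_mul_diagonal, ← Matrix.diagonal_one]
    congr 1
    funext j
    exact inv_mul_cancel₀ (hne j)
  have hsub : (c • anti F (2 * a + 1)).submatrix e e =
      bs (Ln ((-1) ^ a * c)) (fromBlocks 0 D Dᵀ 0 : Matrix (Fin a ⊕ Fin a) (Fin a ⊕ Fin a) F) := by
    ext x y
    rcases x with x | x | x <;> rcases y with y | y | y <;>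
      simp only [Matrix.submatrix_apply, Matrix.smul_apply, smul_eq_mul, anti, bs, e,
        Equiv.ofBijective_apply, C11_fun, Matrix.fromBlocks_apply₁₁, Matrix.fromBlocks_apply₁₂,
        Matrix.fromBlocks_apply₂₁, Matrix.fromBlocks_apply₂₂, Matrix.zero_apply, Ln, D,
        Matrix.transpose_apply, Matrix.diagonal_apply]
    · rw [if_pos (by omega), mul_comm]
    · rw [if_neg (by have := y.2; omega), mul_zero]
    · rw [if_neg (by have := y.2; omega), mul_zero]
    · rw [if_neg (by have := x.2; omega), mul_zero]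
    · rw [if_neg (by have := x.2; have := y.2; omega), mul_zero]
    · by_cases h : x = y
      · subst h
        rw [if_pos (by have := x.2; omega), if_pos rfl, mul_comm]
      · rw [if_neg (by have := x.2; have := y.2; intro h'; exact h (Fin.ext (by omega))), if_neg h,
          mul_zero]
    · rw [if_neg (by have := x.2; omega), mul_zero]
    · by_cases h : y = x
      · subst h
        rw [if_pos (by have := y.2; omega), if_pos rfl, C11_sign a y (by have := y.2; omega), mul_comm]
      · rw [if_neg (by have := x.2; have := y.2; intro h'; exact h (Fin.ext (by omega))), if_neg h,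
          mul_zero]
    · rw [if_neg (by have := x.2; have := y.2; omega), mul_zero]
  have h1 := cg_reindex (c • anti F (2 * a + 1)) e
  rw [hsub] at h1
  exact cg_trans h1 (cg_blocks (cg_refl _) (cg_hy_of_unit D D' hD1 hD2))

end Cfsg.Agent.Lib.Helper30.Uni
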